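import Cfsg.Agent.Mult.Slices
import Cfsg.Agent.U43C.CertD

set_option autoImplicit false
set_option Elab.async false
set_option maxRecDepth 100000
set_option linter.all false

namespace Cfsg.Agent.U43C
open Cfsg.Agent.CGT

open Cfsg.Agent.Mult

set_option Elab.async false
theorem h_a1 : actB 3 8 Rs Ts Ps m_ns 1 = true := by decide +kernel
theorem h_a2 : actB 3 8 Rs Ts Ps m_ns 2 = true := by decide +kernel
theorem h_a3 : actB 3 8 Rs Ts Ps m_ns 3 = true := by decide +kernel
theorem h_r0 : allL qRR (scalW 3 8 Rs Ts) = true := by decide +kernel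

end Cfsg.Agent.U43C
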