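import Cfsg.Agent.Mult.Slices
import Cfsg.Agent.U43C.CertT0
import Cfsg.Agent.U43C.CertT1

set_option autoImplicit false
set_option Elab.async false
set_option maxRecDepth 100000
set_option linter.all false

namespace Cfsg.Agent.U43C
open Cfsg.Agent.CGT

open Cfsg.Agent.Mult

noncomputable def c_l0 : Level := ⟨4, [[0], [2], [4], [6]], [0, 2, 3, 0, 1, 2, 3, 0, 3, 2, 1, 3, 0, 1], 0xffffffffffffffffffffffffffffffffffffffffffffffffffffffffffffffffffffff, 280⟩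
noncomputable def c_l1 : Level := ⟨0, [[2], [4], [6]], [0, 1, 2, 0, 1, 2, 0, 2, 1, 0, 2, 1, 0, 2], 0xdf5fbffdff73ff3dfffdfffff5ffd2fffff77ffafeffb0ffaff36fff7fffffdfffffef, 243⟩
noncomputable def c_l2 : Level := ⟨1, [[4], [6]], [0, 1, 0, 1, 0, 1, 0, 1, 0], 0x880030145641000000040002004cc08820020180000400840400004917041814d80602, 48⟩
noncomputable def c_ls : List Level := [c_l0, c_l1, c_l2]
theorem c_l0_ok : (ptsOK 9 [] && (wordsIn [0, 2, 4, 6] c_l0.S && c_l0.ok 9 m_ns m_ts [])) = true := by decide +kernel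
theorem c_l1_ok : (ptsOK 9 [4] && (wordsIn [0, 2, 4, 6] c_l1.S && c_l1.ok 9 m_ns m_ts [4])) = true := by decide +kernel
theorem c_l2_ok : (ptsOK 9 [0, 4] && (wordsIn [0, 2, 4, 6] c_l2.S && c_l2.ok 9 m_ns m_ts [0, 4])) = true := by decide +kernel
theorem c_sound {G : Type*} [Group G] {φ : G →* Equiv.Perm ℕ} {γ : ℕ → G}
    (M : Model φ γ 9 m_ns m_ts) : ChainSound φ (gp γ [0, 2, 4, 6]) 9 [] c_ls :=
  ⟨Level.ok_sound' M c_l0_ok,
   Level.ok_sound' M c_l1_ok,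
   Level.ok_sound' M c_l2_ok, trivial⟩
theorem cert {F : Type*} [Field F] [Fintype F] (hF : Fintype.card F = 9) (ψ : K9 ≃+* F) :
    ∃ (γ : ℕ → Cfsg.PSU 4 F 3) (φ : _), CGT.Cert φ γ 9 m_ns m_ts [0, 2, 4, 6] c_ls ∧ Holds (ext γ) qRR :=
  Co.Base.cert (C := stdCo kf9 ix ψ.toRingHom) (su_base (r := 3) hF ψ (by decide) h_base) h_der h_gen (scal_std h_sc) h_len
    (uniq_lead h_len h_red h_lead) m_v h_fix (by decide +kernel)
    (fun j hj => by
    change j < 4 at hj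
    interval_cases j
    exacts [h_a0, h_a1, h_a2, h_a3]) m_ts_ok (fun _ _ M => c_sound M) (allL_iff.1 h_r0) (fun _ h => qbd0 h) (by decide +kernel)

end Cfsg.Agent.U43C
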