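import Cfsg.Agent.Mult.Slices
import Cfsg.Agent.U43C.Tabs

set_option autoImplicit false
set_option Elab.async false
set_option maxRecDepth 100000
set_option linter.all false

namespace Cfsg.Agent.U43C
open Cfsg.Agent.CGT

open Cfsg.Agent.Mult

noncomputable def u2_D : PC := ⟨2, 7, 2, 24,
  [[0x1500, 0x44, 0x110, 0x440, 0x1100, 0x1400, 0x1000], [0, 0, 0x1010, 0x40, 0x500, 0x400, 0x1000], [0, 0, 0x1400, 0x1440, 0x1100, 0x400, 0x1000], [0, 0, 0, 0, 0x1100, 0x400, 0x1000], [0, 0, 0, 0, 0, 0x400, 0x1000], [0, 0, 0, 0, 0, 0, 0x1000], [0, 0, 0, 0, 0, 0, 0]],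
  [0x3ff, 0x33, 0xf, 3, 0, 0, 0],
  [(7, 0x100, 0x511), (7, 0x400, 0x40), (8, 0x100, 0x400), (9, 0x10, 0x1104), (9, 0x40, 0x404), (9, 0x400, 0x1000), (9, 0x1000, 0x1400)], 19, 0x40000050302000000000100000000060000⟩
noncomputable def u2_ds : List (List ℕ) := [[6, 5, 2, 6, 4, 0, 5, 0, 4, 7], [4, 2, 0, 5, 2, 7, 4, 7, 2], [4, 2, 0, 2, 6, 5, 6], [6, 5, 2, 5, 6, 0, 7, 2, 7], [4, 0, 4, 7, 4, 2, 5, 7, 2, 6], [4, 6, 5, 2, 5, 6, 0, 2, 0], [0, 2, 7, 2, 4, 6, 0, 4, 0, 4, 0], [4, 0, 2, 4, 6, 6, 2, 7, 0, 4, 0], [2, 7, 0, 6, 5, 0, 5, 7, 7], [2, 6, 6, 2, 5, 0, 5, 2, 6, 0, 6]]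
noncomputable def u2_c : Mult.Cert := ⟨34, 20, [[], [], [], [1], [2], [3], [5]],
  [([9, 25, 33, 48], 2, 0x28c82036c80c00000000)],
  [[0xb2625ae, 0, 0, 0, 0x33ca800, 0, 0x1b48800], [0, 0x1ba8048, 0x2ac8401, 0x1f88040, 0x29a8140, 0x1ba8000, 0xa80000], [0, 0, 0x1aa0d9e, 0x1a20dc0, 0x80c2a10, 0x93cc000, 0x13cc000], [0, 0, 0, 0x1b88040, 0x3980400, 0x1a88000, 0x1000000], [0, 0, 0, 0, 0x1b88010, 0x1bc8000, 0x800000], [0, 0, 0, 0, 0, 0x1b88000, 0x2000000], [0, 0, 0, 0, 0, 0, 0x880000]]⟩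

end Cfsg.Agent.U43C
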