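import Cfsg.Agent.Mult.Slices
import Cfsg.Agent.U43C.Mul2D

set_option autoImplicit false
set_option Elab.async false
set_option maxRecDepth 100000
set_option linter.all false

namespace Cfsg.Agent.U43C
open Cfsg.Agent.CGT

open Cfsg.Agent.Mult

set_option Elab.async false
theorem u2_all : allB u2_D u2_c [.assoc 0x10 0x10 0x10, .assoc 0x400 0x100 0x100, .assoc 0x400 0x10 4, .assoc 0x1000 4 1, .assoc 0x1000 0x10 1, .assoc 4 4 1, .assoc 0x10 4 4, .assoc 0x40 0x40 1, .assoc 0x100 0x100 1, .assoc 0x100 0x100 4, .assoc 0x100 4 4, .assoc 0x100 0x100 0x40, .assoc 0x400 4 1, .assoc 0x400 0x10 1, .assoc 1 1 1, .assoc 0x40 4 1, .assoc 0x100 1 1, .assoc 0x40 1 1, .assoc 0x10 1 1, .assoc 4 1 1, .assoc 0x10 4 1, .fus 7 [1, 1] [], .fus 7 [0, 0] [], .fus 8 [2, 2] [], .fus 9 [4, 4] [], .fus 9 [3, 3] [5, 6], .fus 9 [4, 3] [3, 4, 5, 6]] 9 m_ts u2_ds [1, 0, 4] [(9, [0x400, 0x100, 0x10]), (31, [0x514]), (108, [0x540,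 0x111]), (0, [0x1000])] = true := by decide +kernel

end Cfsg.Agent.U43C
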