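import Cfsg.Agent.Mult.Slices
import Cfsg.Agent.U43C.Tabs

set_option autoImplicit false
set_option Elab.async false
set_option maxRecDepth 100000
set_option linter.all false

namespace Cfsg.Agent.U43C
open Cfsg.Agent.CGT

open Cfsg.Agent.Mult

noncomputable def u3_D : PC := ⟨3, 6, 2, 29,
  [[0x400, 0x44, 0x110, 0x440, 0x100, 0x400], [0, 0, 0x150, 0x40, 0x100, 0x400], [0, 0, 0x400, 0x840, 0x900, 0x400], [0, 0, 0, 0, 0x100, 0x400], [0, 0, 0, 0, 0, 0x400], [0, 0, 0, 0, 0, 0]],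
  [0x3f, 3, 0xf, 0, 0, 0],
  [(6, 0x40, 0x86), (6, 0x100, 0x51), (7, 4, 0x88), (7, 0x40, 0x500), (7, 0x100, 0x480)], 13, 0x20304030105020400010005⟩
noncomputable def u3_ds : List (List ℕ) := [[5, 6, 0, 5, 0, 6, 4, 0, 4, 0], [6, 5, 0, 4, 0, 4, 7], [2, 0, 5, 0, 4, 0, 2, 5, 0, 5, 0], [4, 0, 5, 0, 7, 7], [5, 6, 0, 4, 0, 5, 6, 4], [0, 2, 6, 0, 7, 4, 7, 0, 7, 2, 0], [7, 0, 5, 0, 7, 4, 0, 4, 0, 4], [6, 4, 0, 5, 0, 7, 5, 0, 4, 0, 7]]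
noncomputable def u3_c : Mult.Cert := ⟨53, 24, [[], [], [], [1], [2], [3]],
  [([4], 1, 0x1b72bd60d23df771d759a), ([15, 16, 16, 35, 35], 1, 0x16fdafbbde041bd2581bc)],
  [[0x55a785b, 0, 0, 0, 2, 0xcfd41b91], [0, 0x30a7af, 0x1a5a57a97, 0x521af09, 0x56aaa67, 0x16ce95d], [0, 0, 0x16f61fe28, 0xc4a7352, 0xc528f46, 0x4546b3db], [0, 0, 0, 0x30a7a6, 0x521ae82, 0x1b5e4d6], [0, 0, 0, 0, 0x8a8db499, 0x7b285c3], [0, 0, 0, 0, 0, 0x1037e2]]⟩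

end Cfsg.Agent.U43C
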