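import Cfsg.Agent.Mult.Slices
import Cfsg.Agent.U43C.Mulc3aD

set_option autoImplicit false
set_option Elab.async false
set_option maxRecDepth 100000
set_option linter.all false

namespace Cfsg.Agent.U43C
open Cfsg.Agent.CGT

open Cfsg.Agent.Mult

set_option Elab.async false
theorem mulc3a_p0 : holdsB 7 mulc3a_ns (takeL 14 (dropL 0 qRR)) = true := by decide +kernel
theorem mulc3a_m0 : monB 3 mulc3a_ns mulc3a_C mulc3a_U qRR mulc3a_a 0 14 = true := by decide +kernel
theorem mulc3a_i : invB mulc3a_ns mulc3a_U qRR mulc3a_a 14 = true := by decide +kernel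

end Cfsg.Agent.U43C
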