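import Cfsg.Agent.Mult.Slices
import Cfsg.Agent.U43C.Mulc3a

set_option autoImplicit false
set_option Elab.async false
set_option maxRecDepth 100000
set_option linter.all false

namespace Cfsg.Agent.U43C
open Cfsg.Agent.CGT

open Cfsg.Agent.Mult

noncomputable def mulc3b_C : List (ℕ × ℕ) := [(0x841000810001380010034189402040, 0x80500120b26802880c00200180000),
  (0x17448a04010204101439040130000000, 0xaa7002000cd84b01c0400002100000),
  (0x114458db289091200281220846c88030, 0x2021272040272080200c112100200002),
  (0x210024008b00b804815822260802b000, 0x120e895000a045180020041884d80080)]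
noncomputable def mulc3b_U : ℕ := Nat.sub (Nat.pow 2 126) 1
noncomputable def mulc3b_a : List ℕ := [0, 0, 1, 0, 0, 0, 0, 0, 0, 0, 1, 0, 0, 0]

end Cfsg.Agent.U43C
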