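import Cfsg.Agent.Mult.Slices
import Cfsg.Agent.U43C.Mulc3bT0

set_option autoImplicit false
set_option Elab.async false
set_option maxRecDepth 100000
set_option linter.all false

namespace Cfsg.Agent.U43C
open Cfsg.Agent.CGT

open Cfsg.Agent.Mult

theorem mulc3b_proj : Proj (yM 3 mulc3a_ns mulc3b_C) (zM 3 mulc3b_U) 3 qRR mulc3b_a :=
  have hq : 3 = 2 ∨ 3 = 3 ∨ 3 = 4 := by decide
  proj_mono hq mulc3a_v mulc3a_p (MonR.zero.step hq mulc3a_v mulc3b_m0) mulc3b_i

end Cfsg.Agent.U43C
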