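import Cfsg.Agent.Mult.Slices
import Cfsg.Agent.U43C.Mulc4T0

set_option autoImplicit false
set_option Elab.async false
set_option maxRecDepth 100000
set_option linter.all false

namespace Cfsg.Agent.U43C
open Cfsg.Agent.CGT

open Cfsg.Agent.Mult

theorem mulc4_p : Holds (lp mulc4_ns) qRR :=
  (forall_dropL (a := 0) (m := 14) (holdsB_sound mulc4_v mulc4_p0) (forall_dropL_end (l := qRR) (a := 14) (by decide +kernel)))
theorem mulc4_proj : Proj (yM 4 mulc4_ns mulc4_C) (zM 4 mulc4_U) 4 qRR mulc4_a :=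
  have hq : 4 = 2 ∨ 4 = 3 ∨ 4 = 4 := by decide
  proj_mono hq mulc4_v mulc4_p (MonR.zero.step hq mulc4_v mulc4_m0) mulc4_i

end Cfsg.Agent.U43C
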